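import Cfsg.Agent.Lib.Compute.Simple2
import Mathlib.GroupTheory.GroupAction.Jordan
import Mathlib.GroupTheory.Sylow

/-!
# Sharply 4-transitive groups of degree 11 are simple
-/

set_option autoImplicit false

namespace Cfsg.Agent.Lib.Sharp

open MulAction
open Cfsg.Agent.Lib.Compute

variable {α : Type*} [Fintype α] [DecidableEq α] (G : Subgroup (Equiv.Perm α))

theorem card_stab_mul_aux {H X : Type*} [Group H] [MulAction H X] (hT : IsPretransitive H X) (y : X) :
    Nat.card (stabilizer H y) * Nat.card X = Nat.card H := by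
  have h := (stabilizer H y).card_mul_index
  rw [index_stabilizer, orbit_eq_univ, Set.ncard_univ] at h
  exact h

theorem card_stab_mul {m : ℕ} (hT : IsMultiplyPretransitive G α m) (y : Fin m ↪ α) :
    Nat.card (stabilizer G y) * (Fintype.card α).descFactorial m = Nat.card G := by
  have h := card_stab_mul_aux hT y
  rw [Nat.card_eq_fintype_card (α := Fin m ↪ α), Fintype.card_embedding_eq, Fintype.card_fin] at h
  exact h

/-- The bound for the normaliser of a cyclic subgroup generated by a full cycle. -/
theorem card_normalizer_le {σ : Equiv.Perm α} (hσ : ∀ x y : α, ∃ i : ℕ, (σ ^ i) x = y)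
    (c : G) (hc : (c : Equiv.Perm α) = σ) (hc1 : c ≠ 1) (P : Subgroup G) (hP : P = Subgroup.zpowers c) (a : α)
    [Finite P] :
    Nat.card (Subgroup.normalizer (P : Set G)) ≤ Nat.card α * (Nat.card P - 1) := by
  have hcP : c ∈ P := by rw [hP]; exact Subgroup.mem_zpowers c
  have hne : ∀ g : G, g * c * g⁻¹ ≠ 1 := by
    intro g h
    apply hc1
    have : g⁻¹ * (g * c * g⁻¹) * g = 1 := by rw [h]; group
    rw [← this]; group
  let f : Subgroup.normalizer (P : Set G) → α × {z : P // z ≠ 1} := fun g =>
    ((g : G) • a, ⟨⟨(g : G) * c * (g : G)⁻¹, ((Subgroup.mem_normalizer_iff.1 g.2) c).1 hcP⟩,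
      fun h => hne (g : G) (congrArg Subtype.val h)⟩)
  have hinj : Function.Injective f := by
    intro g h hgh
    simp only [f, Prod.mk.injEq, Subtype.mk.injEq] at hgh
    obtain ⟨h1, h2⟩ := hgh
    apply Subtype.ext
    apply Subtype.ext
    apply Equiv.ext
    intro x
    obtain ⟨i, rfl⟩ := hσ a x
    have hcomm : ∀ (u : G) (i : ℕ), (u * c * u⁻¹) ^ i = u * c ^ i * u⁻¹ := by
      intro u i
      exact conj_pow
    have h3 := hcomm g i
    have h4 := hcomm h i
    rw [h2] at h3
    have h5 : (g : G) * c ^ i * (g : G)⁻¹ = (h : G) * c ^ i * (h : G)⁻¹ := by rw [← h3, h4]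
    have h6 : ((g : G) * c ^ i) = (h : G) * c ^ i * (h : G)⁻¹ * (g : G) := by
      rw [← h5]; group
    have h7 := congrArg (fun u : G => (u : Equiv.Perm α) a) h6
    simp only [Subgroup.coe_mul, Subgroup.coe_pow, Equiv.Perm.mul_apply, hc] at h7
    have h8 : ((g : G) : Equiv.Perm α) a = ((h : G) : Equiv.Perm α) a := h1
    rw [h7, h8]
    simp
  have h1 := Nat.card_le_card_of_injective f hinj
  have h2 : Nat.card (α × {z : P // z ≠ 1}) = Nat.card α * (Nat.card P - 1) := by
    rw [Nat.card_prod]
    congr 1
    have : Nat.card {z : P // z ≠ 1} = Set.ncard ({1}ᶜ : Set P) := by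
      rw [← Nat.card_coe_set_eq]
      rfl
    rw [this, Set.ncard_compl, Set.ncard_singleton]
  omega

/-- Two embeddings agreeing out of a given subgroup: the key transitivity step. -/
theorem two_transitive_of_two_stab_le (hα : 3 < Fintype.card α)
    (h3 : IsMultiplyPretransitive G α 3) (N : Subgroup G) (hT : IsPretransitive N α)
    (hle : ∀ y : Fin 2 ↪ α, stabilizer G y ≤ N) (x y : Fin 2 ↪ α) : ∃ n : N, (n : G) • x = y := by
  obtain ⟨n1, hn1⟩ := hT.exists_smul_eq (x 0) (y 0)
  have hn1' : ((n1 : G) : Equiv.Perm α) (x 0) = y 0 := hn1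
  set z : α := ((n1 : G) : Equiv.Perm α) (x 1) with hz
  have hzy : z ≠ y 0 := by
    rw [← hn1', hz]
    intro h
    have := ((n1 : G) : Equiv.Perm α).injective h
    have h01 : (1 : Fin 2) = 0 := x.injective this
    exact absurd h01 (by decide)
  have hy01 : y 1 ≠ y 0 := fun h => absurd (y.injective h) (by decide)
  -- a second element fixing `y 0` and moving `z` to `y 1`
  obtain ⟨n2, h20, h21⟩ : ∃ n2 : N, ((n2 : G) : Equiv.Perm α) (y 0) = y 0 ∧
      ((n2 : G) : Equiv.Perm α) z = y 1 := by
    obtain ⟨d, hd⟩ : ∃ d : α, d ∉ ({y 0, z, y 1} : Finset α) := by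
      by_contra hcon
      push Not at hcon
      have : (Finset.univ : Finset α) ⊆ {y 0, z, y 1} := fun a _ => hcon a
      have h := Finset.card_le_card this
      have h' : ({y 0, z, y 1} : Finset α).card ≤ 3 := Finset.card_le_three
      rw [Finset.card_univ] at h
      omega
    simp only [Finset.mem_insert, Finset.mem_singleton, not_or] at hd
    obtain ⟨hd0, hdz, hd1⟩ := hd
    let e1 : Fin 3 ↪ α := ⟨![y 0, d, z], by
      intro i j h
      fin_cases i <;> fin_cases j <;> simp_all [eq_comm]⟩
    let e2 : Fin 3 ↪ α := ⟨![y 0, d, y 1], by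
      intro i j h
      fin_cases i <;> fin_cases j <;> simp_all [eq_comm]⟩
    let w : Fin 2 ↪ α := ⟨![y 0, d], by
      intro i j h
      fin_cases i <;> fin_cases j <;> simp_all [eq_comm]⟩
    have h3' : IsPretransitive G (Fin 3 ↪ α) := h3
    obtain ⟨g, hg⟩ := h3'.exists_smul_eq e1 e2
    have hg0 : (g : Equiv.Perm α) (y 0) = y 0 := congrArg (fun e : Fin 3 ↪ α => e 0) hg
    have hgd : (g : Equiv.Perm α) d = d := congrArg (fun e : Fin 3 ↪ α => e 1) hg
    have hgz : (g : Equiv.Perm α) z = y 1 := congrArg (fun e : Fin 3 ↪ α => e 2) hg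
    have hgw : g ∈ stabilizer G w := by
      rw [mem_stabilizer_iff]
      ext i
      fin_cases i
      · exact hg0
      · exact hgd
    exact ⟨⟨g, hle w hgw⟩, hg0, hgz⟩
  refine ⟨n2 * n1, ?_⟩
  ext i
  fin_cases i
  · show ((n2 : G) : Equiv.Perm α) (((n1 : G) : Equiv.Perm α) (x 0)) = y 0
    rw [hn1', h20]
  · show ((n2 : G) : Equiv.Perm α) (((n1 : G) : Equiv.Perm α) (x 1)) = y 1
    exact h21

/-- A sharply 4-transitive group of degree 11 has order 7920 and is simple. -/
theorem simple_of_sharp4 (hα : Fintype.card α = 11) [h4 : IsMultiplyPretransitive G α 4]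
    (hsharp : ∀ x : Fin 4 ↪ α, stabilizer G x = ⊥) : Nat.card G = 7920 ∧ IsSimpleGroup G := by
  have hαn : Nat.card α = 11 := by rw [Nat.card_eq_fintype_card, hα]
  have hcard : Nat.card G = 7920 := by
    obtain ⟨x⟩ : Nonempty (Fin 4 ↪ α) :=
      Function.Embedding.nonempty_of_card_le (by rw [Fintype.card_fin, hα]; omega)
    have h := card_stab_mul G h4 x
    rw [hsharp x, Subgroup.card_bot, hα] at h
    rw [← h]
    rfl
  refine ⟨hcard, ?_⟩
  have h2 : IsMultiplyPretransitive G α 2 := isMultiplyPretransitive_of_le (n := 4) (by omega) (by omega)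
  have h3 : IsMultiplyPretransitive G α 3 := isMultiplyPretransitive_of_le (n := 4) (by omega) (by omega)
  have hprim : IsPreprimitive G α := isPreprimitive_of_is_two_pretransitive h2
  have hnt : Nontrivial G := by
    apply (Finite.one_lt_card_iff_nontrivial).1
    omega
  have : Fact (Nat.Prime 11) := ⟨by norm_num⟩
  have hne : Nonempty α := by
    apply Fintype.card_pos_iff.1
    omega
  obtain ⟨a⟩ := hne
  refine ⟨fun N hN => ?_⟩
  by_cases hbot : N = ⊥
  · exact Or.inl hbot
  right
  have hT : IsPretransitive N α := isPretransitive_of_normal_of_preprimitive N hbot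
  have : Nonempty α := ⟨a⟩
  have hdvd : Nat.card α ∣ Nat.card N := card_dvd_of_isPretransitive N
  rw [hαn] at hdvd
  obtain ⟨c0, hc0⟩ := exists_prime_orderOf_dvd_card' 11 hdvd
  set c : G := (c0 : G) with hc_def
  have hco : orderOf c = 11 := by rw [hc_def, Subgroup.orderOf_coe, hc0]
  have hσo : orderOf (c : Equiv.Perm α) = 11 := by rw [Subgroup.orderOf_coe, hco]
  have hc1 : c ≠ 1 := by
    intro h
    rw [h, orderOf_one] at hco
    omega
  -- `c` is a full cycle
  have hcyc : (c : Equiv.Perm α).IsCycle := by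
    apply Equiv.Perm.isCycle_of_prime_order'
    · rw [hσo]; norm_num
    · rw [hσo, hα]; omega
  have hsupp : (c : Equiv.Perm α).support = Finset.univ := by
    apply Finset.eq_univ_of_card
    rw [← hcyc.orderOf, hσo, hα]
  have hσ : ∀ x y : α, ∃ i : ℕ, ((c : Equiv.Perm α) ^ i) x = y := by
    intro x y
    apply hcyc.exists_pow_eq
    · rw [← Equiv.Perm.mem_support, hsupp]; exact Finset.mem_univ _
    · rw [← Equiv.Perm.mem_support, hsupp]; exact Finset.mem_univ _
  -- the Sylow subgroup
  have hQcard : Nat.card (Subgroup.zpowers c) = 11 := by rw [Nat.card_zpowers, hco]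
  have hQp : IsPGroup 11 (Subgroup.zpowers c) := IsPGroup.of_card (n := 1) (by rw [hQcard]; norm_num)
  obtain ⟨P, hQP⟩ := hQp.exists_le_sylow
  have hPcard : Nat.card (P : Subgroup G) = 11 := by
    obtain ⟨n, hn⟩ := IsPGroup.iff_card.1 P.isPGroup'
    have h1 : 11 ^ n ∣ 7920 := by
      rw [← hn, ← hcard]
      exact Subgroup.card_subgroup_dvd_card _
    have h2n : n ≤ 1 := by
      by_contra hcon
      have : 11 ^ 2 ∣ 11 ^ n := pow_dvd_pow 11 (by omega)
      have := this.trans h1
      omega
    have h3n : 11 ∣ Nat.card (P : Subgroup G) := by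
      have := Subgroup.card_dvd_of_le hQP
      rwa [hQcard] at this
    rw [hn] at h3n ⊢
    interval_cases n
    · omega
    · norm_num
  have hPQ : (P : Subgroup G) = Subgroup.zpowers c := by
    symm
    apply Subgroup.eq_of_le_of_card_ge hQP
    rw [hPcard, hQcard]
  have hPN : (P : Subgroup G) ≤ N := by
    rw [hPQ]
    rw [Subgroup.zpowers_le]
    exact c0.2
  -- normaliser of `P`
  have hM := card_normalizer_le G hσ c rfl hc1 (P : Subgroup G) hPQ a
  rw [hαn, hPcard] at hM
  have hMd : 11 ∣ Nat.card (Subgroup.normalizer ((P : Subgroup G) : Set G)) := by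
    have := Subgroup.card_dvd_of_le (Subgroup.le_normalizer (H := (P : Subgroup G)))
    rwa [hPcard] at this
  obtain ⟨m, hm⟩ := hMd
  have hidx := (Subgroup.normalizer ((P : Subgroup G) : Set G)).card_mul_index
  have hsyl : Nat.card (Sylow 11 G) = (Subgroup.normalizer ((P : Subgroup G) : Set G)).index :=
    Sylow.card_eq_index_normalizer P
  have hmod := card_sylow_modEq_one 11 G
  rw [hsyl] at hmod
  set k := (Subgroup.normalizer ((P : Subgroup G) : Set G)).index with hk
  rw [hcard, hm] at hidx
  have hm5 : m = 5 := by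
    have hm10 : m ≤ 10 := by omega
    have hkm : k % 11 = 1 := hmod
    interval_cases m <;> omega
  -- index of `N` divides 5
  have hsup : Subgroup.normalizer ((P : Subgroup G) : Set G) ⊔ N = ⊤ := Sylow.normalizer_sup_eq_top' P hPN
  have hNidx : N.index ∣ 5 := by
    have h1 : N.relIndex (Subgroup.normalizer ((P : Subgroup G) : Set G)) = N.index := by
      rw [← Subgroup.relIndex_sup_right, hsup, Subgroup.relIndex_top_right]
    have h2 : N.relIndex (Subgroup.normalizer ((P : Subgroup G) : Set G)) ∣
        (P : Subgroup G).relIndex (Subgroup.normalizer ((P : Subgroup G) : Set G)) :=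
      Subgroup.relIndex_dvd_of_le_left _ hPN
    have h3 : (P : Subgroup G).relIndex (Subgroup.normalizer ((P : Subgroup G) : Set G)) = 5 := by
      have h := ((P : Subgroup G).subgroupOf
        (Subgroup.normalizer ((P : Subgroup G) : Set G))).card_mul_index
      have h' : Nat.card ((P : Subgroup G).subgroupOf
          (Subgroup.normalizer ((P : Subgroup G) : Set G))) = 11 := by
        exact (Nat.card_congr (Subgroup.subgroupOfEquivOfLe Subgroup.le_normalizer).toEquiv).trans hPcard
      rw [h', hm, hm5] at h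
      show ((P : Subgroup G).subgroupOf (Subgroup.normalizer ((P : Subgroup G) : Set G))).index = 5
      omega
    rw [h1, h3] at h2
    exact h2
  -- all two-point stabilisers are in `N`
  have hpow5 : ∀ g : G, g ^ 5 ∈ N := by
    intro g
    obtain ⟨t, ht⟩ := hNidx
    rw [ht, pow_mul]
    exact N.pow_mem (Subgroup.pow_index_mem N g) _
  have hstab : ∀ y : Fin 2 ↪ α, stabilizer G y ≤ N := by
    intro y g hg
    have hc72 : Nat.card (stabilizer G y) = 72 := by
      have h := card_stab_mul G h2 y
      rw [hcard, hα] at h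
      have h' : (11 : ℕ).descFactorial 2 = 110 := rfl
      rw [h'] at h
      omega
    have h1 : (⟨g, hg⟩ : stabilizer G y) ^ 72 = 1 := by
      rw [← hc72]
      exact pow_card_eq_one'
    have h2' : g ^ 72 = 1 := congrArg Subtype.val h1
    have h3' : g = (g ^ 5) ^ 29 := by
      rw [← pow_mul]
      have : g ^ (5 * 29) = g * (g ^ 72) ^ 2 := by
        rw [← pow_mul, ← pow_succ']
      rw [this, h2']
      simp
    rw [h3']
    exact N.pow_mem (hpow5 g) _
  have hne2 : Nonempty (Fin 2 ↪ α) :=
    Function.Embedding.nonempty_of_card_le (by rw [Fintype.card_fin, hα]; omega)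
  have hd2 : Nat.card (Fin 2 ↪ α) ∣ Nat.card N :=
    @card_dvd_of_isPretransitive G (Fin 2 ↪ α) _ _ _ _ hne2 N
      ⟨two_transitive_of_two_stab_le G (by omega) h3 N hT hstab⟩
  rw [Nat.card_eq_fintype_card, Fintype.card_embedding_eq, Fintype.card_fin, hα] at hd2
  have h110 : (11 : ℕ).descFactorial 2 = 110 := rfl
  rw [h110] at hd2
  have hNc := N.card_mul_index
  rw [hcard] at hNc
  have hi : N.index = 1 ∨ N.index = 5 := (Nat.dvd_prime (by norm_num)).1 hNidx
  rcases hi with hi | hi
  · exact Subgroup.index_eq_one.1 hi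
  · exfalso
    rw [hi] at hNc
    have h1584 : Nat.card N = 1584 := by omega
    rw [h1584] at hd2
    omega

/-- Extending an embedding into the complement of `x` by `x` itself. -/
def extEmb {x : α} (e : Fin 4 ↪ {y : α // y ≠ x}) : Fin 5 ↪ α :=
  ⟨Fin.cons x (fun i => (e i).1), by
    intro i j h
    induction i using Fin.cases with
    | zero =>
      induction j using Fin.cases with
      | zero => rfl
      | succ j =>
        simp only [Fin.cons_zero, Fin.cons_succ] at h
        exact absurd h.symm (e j).2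
    | succ i =>
      induction j using Fin.cases with
      | zero =>
        simp only [Fin.cons_zero, Fin.cons_succ] at h
        exact absurd h (e i).2
      | succ j =>
        simp only [Fin.cons_succ] at h
        have := e.injective (Subtype.ext h)
        rw [this]⟩

/-- The action of a point stabiliser on the remaining points. -/
def stabHom (x : α) : stabilizer G x →* Equiv.Perm {y : α // y ≠ x} where
  toFun g := ((g : G) : Equiv.Perm α).subtypePerm (by
    intro y
    have hg : ((g : G) : Equiv.Perm α) x = x := g.2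
    apply not_congr
    constructor
    · intro hy
      exact ((g : G) : Equiv.Perm α).injective (hy.trans hg.symm)
    · intro hy
      exact (congrArg _ hy).trans hg)
  map_one' := Equiv.ext fun y => Subtype.ext rfl
  map_mul' _ _ := Equiv.ext fun y => Subtype.ext rfl

theorem stabHom_apply (x : α) (g : stabilizer G x) (y : {y : α // y ≠ x}) :
    ((stabHom G x g y : {y : α // y ≠ x}) : α) = ((g : G) : Equiv.Perm α) y := rfl

theorem stabHom_injective (x : α) : Function.Injective (stabHom G x) := by
  intro g h hgh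
  apply Subtype.ext
  apply Subtype.ext
  apply Equiv.ext
  intro y
  by_cases hy : y = x
  · subst hy
    exact (g.2 : ((g : G) : Equiv.Perm α) y = y).trans (h.2 : ((h : G) : Equiv.Perm α) y = y).symm
  · have := congrArg (fun u : Equiv.Perm {y : α // y ≠ x} => ((u ⟨y, hy⟩ : {y : α // y ≠ x}) : α)) hgh
    exact this

/-- A sharply 5-transitive group of degree 12 has order 95040 and is simple. -/
theorem simple_of_sharp5 (hα : Fintype.card α = 12) [h5 : IsMultiplyPretransitive G α 5]
    (hsharp : ∀ x : Fin 5 ↪ α, stabilizer G x = ⊥) : Nat.card G = 95040 ∧ IsSimpleGroup G := by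
  have hαn : Nat.card α = 12 := by rw [Nat.card_eq_fintype_card, hα]
  have hcard : Nat.card G = 95040 := by
    obtain ⟨x⟩ : Nonempty (Fin 5 ↪ α) :=
      Function.Embedding.nonempty_of_card_le (by rw [Fintype.card_fin, hα]; omega)
    have h := card_stab_mul G h5 x
    rw [hsharp x, Subgroup.card_bot, hα] at h
    rw [← h]
    rfl
  refine ⟨hcard, ?_⟩
  have h2 : IsMultiplyPretransitive G α 2 := isMultiplyPretransitive_of_le (n := 5) (by omega) (by omega)
  have hnt : Nontrivial G := by
    apply (Finite.one_lt_card_iff_nontrivial).1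
    omega
  have hne : Nonempty α := by
    apply Fintype.card_pos_iff.1
    omega
  obtain ⟨x⟩ := hne
  have hY : Fintype.card {y : α // y ≠ x} = 11 := by
    rw [Fintype.card_subtype_compl, hα]
    simp
  have hH4 : IsMultiplyPretransitive (stabHom G x).range {y : α // y ≠ x} 4 := by
    refine ⟨fun e e' => ?_⟩
    have h5' : IsPretransitive G (Fin 5 ↪ α) := h5
    obtain ⟨g, hg⟩ := h5'.exists_smul_eq (extEmb e) (extEmb e')
    have hgx : g ∈ stabilizer G x := congrArg (fun u : Fin 5 ↪ α => u 0) hg
    refine ⟨⟨stabHom G x ⟨g, hgx⟩, ⟨_, rfl⟩⟩, ?_⟩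
    ext i
    exact congrArg (fun u : Fin 5 ↪ α => u i.succ) hg
  have hHs : ∀ e : Fin 4 ↪ {y : α // y ≠ x}, stabilizer (stabHom G x).range e = ⊥ := by
    intro e
    rw [eq_bot_iff]
    rintro ⟨h, g, rfl⟩ hh
    rw [Subgroup.mem_bot]
    have hg1 : (g : G) ∈ stabilizer G (extEmb e) := by
      rw [mem_stabilizer_iff]
      ext i
      induction i using Fin.cases with
      | zero => exact g.2
      | succ i =>
        have h1 := congrArg (fun u : Fin 4 ↪ {y : α // y ≠ x} => ((u i : {y : α // y ≠ x}) : α)) hh
        exact h1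
    rw [hsharp, Subgroup.mem_bot] at hg1
    apply Subtype.ext
    have : g = 1 := Subtype.ext hg1
    show stabHom G x g = 1
    rw [this, map_one]
  have hsimple : IsSimpleGroup (stabHom G x).range :=
    (simple_of_sharp4 (stabHom G x).range hY hHs).2
  have hsimple' : IsSimpleGroup (stabilizer G x) :=
    (MonoidHom.ofInjective (stabHom_injective G x)).isSimpleGroup
  exact isSimpleGroup_of_two_transitive h2 x hsimple' (p := 2) (q := 3) (by norm_num) (by norm_num)
    (by norm_num) (by rw [hαn]; norm_num) (by rw [hαn]; norm_num)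

end Cfsg.Agent.Lib.Sharp
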